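import Cfsg.Agent.H172.Cov.Lin
import Cfsg.Agent.H383.Cov.Parity

/-!
# S2499, the orthogonal groups over the field of two elements: the elements (helper172)

Elements `t` of odd order of `GL_n(2)`: from a few conjugation invariant facts (the order, powers without fixed vectors)
we get the dimensions of the invariant subspaces and of the fixed spaces of the powers.
-/

set_option autoImplicit false
set_option linter.unusedSectionVars false

namespace Cfsg.Agent.H172.Cov

open Module Matrix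
open Cfsg.Agent.H383.Cov (Blk eqv)
open scoped MatrixGroups

/-- `GL_n(2)` -/
abbrev G (n : ℕ) : Type := GL (Fin n) (ZMod 2)

/-- the natural module -/
abbrev V (n : ℕ) : Type := Fin n → ZMod 2

variable {n : ℕ}

/-- the endomorphism of an element -/
abbrev E (t : G n) : Module.End (ZMod 2) (V n) := Matrix.toLin' (t : Matrix (Fin n) (Fin n) (ZMod 2))

theorem E_apply (t : G n) (v : V n) : E t v = (t : Matrix (Fin n) (Fin n) (ZMod 2)) *ᵥ v := rfl

theorem E_mul (t u : G n) : E (t * u) = E t * E u := by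
  change Matrix.toLin' _ = _
  rw [Units.val_mul, Matrix.toLin'_mul]
  rfl

theorem E_one : E (1 : G n) = 1 := by
  change Matrix.toLin' _ = _
  rw [Units.val_one, Matrix.toLin'_one]
  rfl

theorem E_pow (t : G n) (j : ℕ) : E (t ^ j) = E t ^ j := by
  induction j with
  | zero => rw [pow_zero, pow_zero, E_one]
  | succ j ih => rw [pow_succ, pow_succ, E_mul, ih]

theorem E_inj {t u : G n} (h : E t = E u) : t = u := Units.ext (Matrix.toLin'.injective h)

/-- no nonzero vector is fixed by `t ^ j` -/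
def NF (t : G n) (j : ℕ) : Prop := ∀ v : V n, E (t ^ j) v = v → v = 0

theorem fix_gcd {t : G n} {i j : ℕ} {v : V n} (hi : E (t ^ i) v = v) (hj : E (t ^ j) v = v) :
    E (t ^ Nat.gcd i j) v = v := by
  have key : ∀ k, (fun w => E t w)^[k] v = E (t ^ k) v := by
    intro k
    rw [E_pow]
    induction k with
    | zero => rfl
    | succ k ih => rw [Function.iterate_succ_apply', ih, pow_succ', Module.End.mul_apply]
  have h1 : Function.IsPeriodicPt (fun w => E t w) i v := (key i).trans hi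
  have h2 : Function.IsPeriodicPt (fun w => E t w) j v := (key j).trans hj
  exact (key _).symm.trans (h1.gcd h2)

theorem E_comm (t : G n) (i j : ℕ) : E (t ^ i) * E (t ^ j) = E (t ^ j) * E (t ^ i) := by
  rw [← E_mul, ← E_mul, ← pow_add, ← pow_add, add_comm]

/-- the subspace is invariant -/
def Inv (t : G n) (W : Submodule (ZMod 2) (V n)) : Prop := ∀ w ∈ W, E t w ∈ W

theorem Inv.pow {t : G n} {W : Submodule (ZMod 2) (V n)} (h : Inv t W) (j : ℕ) : Inv (t ^ j) W := by
  intro w hw
  rw [E_pow]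
  induction j with
  | zero => exact hw
  | succ j ih => rw [pow_succ', Module.End.mul_apply]; exact h _ ih

/-- all dimensions of invariant subspaces satisfy `S` -/
def Dims (t : G n) (S : ℕ → Prop) : Prop := ∀ W : Submodule (ZMod 2) (V n), Inv t W → S (finrank (ZMod 2) W)

/-- dimension of the fixed space of a power -/
noncomputable def kd (t : G n) (j : ℕ) : ℕ := finrank (ZMod 2) (LinearMap.ker (E (t ^ j) - 1))

/-- dimension of the commutator space of a power -/
noncomputable def rd (t : G n) (j : ℕ) : ℕ := finrank (ZMod 2) (LinearMap.range (E (t ^ j) - 1))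

theorem card2 : Nat.card (ZMod 2) = 2 := by rw [Nat.card_eq_fintype_card, ZMod.card]

/-- **One prime.** -/
theorem data1 {r c : ℕ} (h : Pr 2 r c) {t : G n} {i : ℕ} (hi : t ^ (i * r) = 1) (hi1 : t ^ i ≠ 1) :
    rd t i + kd t i = n ∧ c ∣ rd t i ∧ 0 < rd t i ∧
      ∀ W : Submodule (ZMod 2) (V n), Inv t W → ∃ a b, finrank (ZMod 2) W = a + b ∧ c ∣ b ∧ a ≤ kd t i ∧ b ≤ rd t i := by
  rw [← card2] at h
  have hx : E (t ^ i) ^ r = 1 := by rw [← E_pow, ← pow_mul, hi, E_one]
  obtain ⟨h1, h2⟩ := h.tot hx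
  refine ⟨?_, h2, range_pos ?_, fun W hW => h.one hx (hW.pow i)⟩
  · rw [Module.finrank_fintype_fun_eq_card, Fintype.card_fin] at h1
    exact h1
  · intro h3
    rw [← E_one] at h3
    exact hi1 (E_inj h3)

/-- **Two primes.** -/
theorem data2 {r c s d : ℕ} (h : Pr 2 r c) (h' : Pr 2 s d) {t : G n} {i j : ℕ} (hi : t ^ (i * r) = 1)
    (hj : t ^ (j * s) = 1) (hi1 : t ^ i ≠ 1) (hnf : NF t (Nat.gcd i j)) :
    rd t i + kd t i = n ∧ c ∣ rd t i ∧ d ∣ kd t i ∧ 0 < rd t i ∧
      ∀ W : Submodule (ZMod 2) (V n), Inv t W →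
        ∃ a b, finrank (ZMod 2) W = a + b ∧ c ∣ b ∧ d ∣ a ∧ a ≤ kd t i ∧ b ≤ rd t i := by
  rw [← card2] at h h'
  have hx : E (t ^ i) ^ r = 1 := by rw [← E_pow, ← pow_mul, hi, E_one]
  have hy : E (t ^ j) ^ s = 1 := by rw [← E_pow, ← pow_mul, hj, E_one]
  have hf : ∀ v, E (t ^ i) v = v → E (t ^ j) v = v → v = 0 := fun v h1 h2 => hnf v (fix_gcd h1 h2)
  obtain ⟨h1, h2, h3⟩ := h.tot2 h' hx hy (E_comm t i j) hf
  refine ⟨?_, h2, h3, range_pos ?_, fun W hW => h.two h' hx hy (E_comm t i j) hf (hW.pow i) (hW.pow j)⟩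
  · rw [Module.finrank_fintype_fun_eq_card, Fintype.card_fin] at h1
    exact h1
  · intro h4
    rw [← E_one] at h4
    exact hi1 (E_inj h4)

/-- the root spaces of the trinomials `X ^ a + X ^ b + 1` -/
noncomputable def K (x : G n) (a b : ℕ) : Submodule (ZMod 2) (V n) :=
  LinearMap.ker (Matrix.toLin' (Polynomial.aeval (x : Matrix (Fin n) (Fin n) (ZMod 2))
    (Polynomial.X ^ a + Polynomial.X ^ b + 1 : Polynomial (ZMod 2))))

theorem mem_K {x : G n} {a b : ℕ} {v : V n} : v ∈ K x a b ↔ E (x ^ a) v + E (x ^ b) v + v = 0 := by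
  rw [K, LinearMap.mem_ker, Matrix.toLin'_apply, map_add, map_add, map_pow, map_pow, Polynomial.aeval_X, map_one,
    Matrix.add_mulVec, Matrix.add_mulVec, Matrix.one_mulVec]
  simp only [E_apply, Units.val_pow_eq_pow_val]

/-- the trinomial has a root vector -/
def Rt (x : G n) (a b : ℕ) : Prop := ∃ v : V n, v ≠ 0 ∧ E (x ^ a) v + E (x ^ b) v + v = 0

theorem two_eq (v : V n) : v + v = 0 := by
  funext i
  exact CharTwo.add_self_eq_zero (v i)

theorem K_inv (x : G n) (a b : ℕ) : Inv x (K x a b) := by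
  intro v hv
  rw [mem_K] at hv ⊢
  have h1 : ∀ k, E (x ^ k) (E x v) = E x (E (x ^ k) v) := by
    intro k
    rw [← Module.End.mul_apply, ← Module.End.mul_apply, ← E_mul, ← E_mul, ← pow_succ, ← pow_succ']
  rw [h1, h1, ← map_add, ← map_add, hv, map_zero]

theorem K_free (x : G n) (a b : ℕ) : ∀ v ∈ K x a b, E x v = v → v = 0 := by
  intro v hv hx
  rw [mem_K] at hv
  have h1 : ∀ k, E (x ^ k) v = v := by
    intro k
    rw [E_pow]
    induction k with
    | zero => rfl
    | succ k ih => rw [pow_succ', Module.End.mul_apply, ih, hx]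
  rw [h1, h1, two_eq, zero_add] at hv
  exact hv

theorem K_disjoint {x : G n} {a b M : ℕ} (hx : x ^ M = 1) (hco : Nat.gcd (a - 2 * b) M = 1) (hab : 2 * b < a) :
    K x a b ⊓ K x a (a - b) = ⊥ := by
  rw [eq_bot_iff]
  rintro v ⟨h1, h2⟩
  have h1' := mem_K.1 h1
  have h2' := mem_K.1 h2
  have h3 : E (x ^ b) v = E (x ^ (a - b)) v := by
    have h4 : E (x ^ a) v + E (x ^ b) v + v = E (x ^ a) v + E (x ^ (a - b)) v + v := by rw [h1', h2']
    exact add_left_cancel (add_right_cancel h4)
  have h4 : E (x ^ (a - 2 * b)) v = v := by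
    have h5 : E (x ^ (a - b)) v = E (x ^ b) (E (x ^ (a - 2 * b)) v) := by
      rw [← Module.End.mul_apply, ← E_mul, ← pow_add]
      congr 2
      congr 1
      omega
    rw [h5] at h3
    have h6 : ∀ u w : V n, E (x ^ b) u = E (x ^ b) w → u = w := by
      intro u w h
      have h7 : E ((x ^ b)⁻¹) (E (x ^ b) u) = E ((x ^ b)⁻¹) (E (x ^ b) w) := by rw [h]
      rwa [← Module.End.mul_apply, ← Module.End.mul_apply, ← E_mul, inv_mul_cancel, E_one] at h7
    exact (h6 _ _ h3).symm
  have h5 : E (x ^ M) v = v := by rw [hx, E_one]; rfl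
  have h6 := fix_gcd h4 h5
  rw [hco, pow_one] at h6
  exact K_free x a b v h1 h6

/-- **the root space of a trinomial of degree `c`** -/
theorem finrank_K {r c b : ℕ} (h : Pr 2 r c) {x : G n} (hx : x ^ r = 1) (h1 : Rt x c b) (h2 : Rt x c (c - b))
    (hco : Nat.gcd (c - 2 * b) r = 1) (hb : 2 * b < c) (hd : rd x 1 < 3 * c) :
    finrank (ZMod 2) (K x c b) = c := by
  rw [← card2] at h
  refine (ker_eq h (x := E x) (A := K x c b) (B := K x c (c - b)) (by rw [← E_pow, hx, E_one]) (K_inv x c b)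
    (K_inv x c (c - b)) (K_free x c b) (K_free x c (c - b)) ?_ ?_ (K_disjoint hx hco hb) ?_).1
  · obtain ⟨v, hv, hv'⟩ := h1
    intro h3
    have h4 : v ∈ K x c b := mem_K.2 hv'
    rw [h3] at h4
    exact hv ((Submodule.mem_bot _).1 h4)
  · obtain ⟨v, hv, hv'⟩ := h2
    intro h3
    have h4 : v ∈ K x c (c - b) := mem_K.2 hv'
    rw [h3] at h4
    exact hv ((Submodule.mem_bot _).1 h4)
  · rw [rd, pow_one] at hd
    exact hd

theorem rd_pow (t : G n) (j : ℕ) : rd (t ^ j) 1 = rd t j := by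
  rw [rd, rd, pow_one]

/-- two root spaces: the commutator space has dimension at least `2 c` -/
theorem finrank_K' {r c b : ℕ} (h : Pr 2 r c) {x : G n} (hx : x ^ r = 1) (h1 : Rt x c b) (h2 : Rt x c (c - b))
    (hco : Nat.gcd (c - 2 * b) r = 1) (hb : 2 * b < c) : 2 * c ≤ rd x 1 := by
  rcases Nat.lt_or_ge (rd x 1) (3 * c) with hd | hd
  · have e1 := finrank_K h hx h1 h2 hco hb hd
    rw [← card2] at h
    have hne : ∀ a, Rt x c a → K x c a ≠ ⊥ := by
      rintro a ⟨v, hv, hv'⟩ h3
      have h4 : v ∈ K x c a := mem_K.2 hv'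
      rw [h3] at h4
      exact hv ((Submodule.mem_bot _).1 h4)
    have hx' : E x ^ r = 1 := by rw [← E_pow, hx, E_one]
    have e2 := (ker_eq h (x := E x) (A := K x c b) (B := K x c (c - b)) hx' (K_inv x c b)
      (K_inv x c (c - b)) (K_free x c b) (K_free x c (c - b)) (hne _ h1) (hne _ h2) (K_disjoint hx hco hb) (by
        rw [rd, pow_one] at hd; exact hd)).2
    have e3 := Submodule.finrank_sup_add_finrank_inf_eq (K x c b) (K x c (c - b))
    rw [K_disjoint hx hco hb, finrank_bot, e1, e2] at e3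
    have key : ∀ A : Submodule (ZMod 2) (V n), Inv x A → (∀ w ∈ A, E x w = w → w = 0) →
        A ≤ LinearMap.range (E x - 1) := by
      intro A hA hA0
      have h1 := split hx' h.cop hA
      have h2 : A ⊓ LinearMap.ker (E x - 1) = ⊥ := by
        rw [eq_bot_iff]
        rintro w ⟨h3, h4⟩
        exact hA0 w h3 (sub_eq_zero.1 h4)
      rw [h2, finrank_bot, zero_add] at h1
      have h3 : A ⊓ LinearMap.range (E x - 1) = A := Submodule.eq_of_le_of_finrank_eq inf_le_left h1
      rw [← h3]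
      exact inf_le_right
    have e4 : finrank (ZMod 2) (K x c b ⊔ K x c (c - b) : Submodule (ZMod 2) (V n)) ≤ rd x 1 := by
      rw [rd, pow_one]
      exact Submodule.finrank_mono (sup_le (key _ (K_inv x c b) (K_free x c b))
        (key _ (K_inv x c (c - b)) (K_free x c (c - b))))
    omega
  · omega

/-- block elements -/
theorem blk_of {t : G n} {i r k : ℕ} (hr : orderOf (t ^ i) = r) (h : Pr 2 r k) (hk : rd t i = k) : Blk k (t ^ i) where
  copq := by rw [hr, card2]; exact h.cop
  cop := by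
    intro j h1 h2
    rw [hr, card2]
    exact (Nat.Prime.coprime_iff_not_dvd h.prime).2 (h.min j h1 h2)
  rk := hk

/-! ### invariance under conjugation -/

theorem E_conj_fix {g t : G n} {v : V n} : E (g * t * g⁻¹) (E g v) = E g (E t v) := by
  rw [← Module.End.mul_apply, ← Module.End.mul_apply, ← E_mul, ← E_mul, inv_mul_cancel_right]

theorem conj_pow' (g t : G n) (j : ℕ) : (g * t * g⁻¹) ^ j = g * t ^ j * g⁻¹ := by rw [conj_pow]

theorem exists_E (g : G n) (v : V n) : ∃ u, E g u = v := ⟨E g⁻¹ v, by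
  rw [← Module.End.mul_apply, ← E_mul, mul_inv_cancel, E_one]; rfl⟩

theorem E_injective (g : G n) {u w : V n} (h : E g u = E g w) : u = w := by
  have h7 : E g⁻¹ (E g u) = E g⁻¹ (E g w) := by rw [h]
  rwa [← Module.End.mul_apply, ← Module.End.mul_apply, ← E_mul, inv_mul_cancel, E_one] at h7

theorem NF.conj {t : G n} {j : ℕ} (h : NF t j) (g : G n) : NF (g * t * g⁻¹) j := by
  intro v hv
  obtain ⟨u, rfl⟩ := exists_E g v
  rw [conj_pow', E_conj_fix] at hv
  rw [h u (E_injective g hv), map_zero]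

theorem Rt.conj {x : G n} {a b : ℕ} (h : Rt x a b) (g : G n) : Rt (g * x * g⁻¹) a b := by
  obtain ⟨v, hv, h⟩ := h
  refine ⟨E g v, fun h0 => hv (E_injective g (by rw [h0, map_zero])), ?_⟩
  rw [conj_pow', conj_pow', E_conj_fix, E_conj_fix, ← map_add, ← map_add, h, map_zero]

/-- the number of singular vectors fixed by `t ^ j` -/
noncomputable def ns (Q : V n → ZMod 2) (t : G n) (j : ℕ) : ℕ := Nat.card {v : V n // E (t ^ j) v = v ∧ Q v = 0}

theorem ns_conj {Q : V n → ZMod 2} {g : G n} (hg : ∀ v, Q (E g v) = Q v) (t : G n) (j : ℕ) :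
    ns Q (g * t * g⁻¹) j = ns Q t j := by
  refine (Nat.card_congr (Equiv.ofBijective (fun v : {v : V n // E (t ^ j) v = v ∧ Q v = 0} =>
    (⟨E g v.1, by rw [conj_pow', E_conj_fix, v.2.1], by rw [hg]; exact v.2.2⟩ :
      {v : V n // E ((g * t * g⁻¹) ^ j) v = v ∧ Q v = 0})) ⟨?_, ?_⟩)).symm
  · intro u v h
    exact Subtype.ext (E_injective g (congrArg Subtype.val h))
  · rintro ⟨w, hw1, hw2⟩
    obtain ⟨u, rfl⟩ := exists_E g w
    rw [conj_pow', E_conj_fix] at hw1
    exact ⟨⟨u, E_injective g hw1, by rwa [hg] at hw2⟩, rfl⟩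

theorem orderOf_conj' (g t : G n) : orderOf (g * t * g⁻¹) = orderOf t :=
  orderOf_injective (MulAut.conj g).toMonoidHom (MulAut.conj g).injective t

end Cfsg.Agent.H172.Cov
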