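import Cfsg.Agent.H172.Cov.Geo

/-!
# S2499, the orthogonal groups over the field of two elements: reducible groups and fields of matrices (helper172)
-/

set_option autoImplicit false
set_option linter.unusedSectionVars false

namespace Cfsg.Agent.H172.Cov

open Module Matrix Cfsg Cfsg.Geo
open Cfsg.Agent.H383.Cov (comm_of_coprime dvd_ker Blk)
open Cfsg.Agent.H278.Cov (Red)
open scoped MatrixGroups

variable {n : ℕ} {Q : V n → ZMod 2} {H : Subgroup (G n)}

/-- reducible or irreducible -/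
theorem red_or_irr (H : Subgroup (G n)) :
    (∃ W : Submodule (ZMod 2) (V n), W ≠ ⊥ ∧ W ≠ ⊤ ∧ ∀ t ∈ H, Inv t W) ∨
      (¬ Red H ∧ ActsIrreducibly (matrixSet H)) := by
  by_cases h : ∃ W : Submodule (ZMod 2) (V n), W ≠ ⊥ ∧ W ≠ ⊤ ∧ ∀ t ∈ H, Inv t W
  · exact Or.inl h
  · right
    refine ⟨?_, fun W hW => ?_⟩
    · rintro ⟨W, h1, h2, h3⟩
      exact h ⟨W, h1, h2, fun t ht w hw => (h3 ht w).1 hw⟩
    · by_contra hcon
      push Not at hcon
      refine h ⟨W, hcon.1, hcon.2, fun t ht w hw => ?_⟩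
      exact hW _ ⟨t, ht, rfl⟩ (Submodule.mem_map_of_mem hw)

/-- the reducible case is excluded by the dimensions -/
theorem irr_of_dims {t u : G n} (ht : t ∈ H) (hu : u ∈ H) {S S' : ℕ → Prop} (h1 : Dims t S) (h2 : Dims u S')
    (h : ∀ d, 0 < d → d < n → S d → S' d → False) : ¬ Red H ∧ ActsIrreducibly (matrixSet H) := by
  rcases red_or_irr H with ⟨W, hb, ht', hW⟩ | h3
  · exfalso
    refine h (finrank (ZMod 2) W) ?_ ?_ (h1 W (hW t ht)) (h2 W (hW u hu))
    · rw [Nat.pos_iff_ne_zero]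
      exact fun h => hb (Submodule.finrank_eq_zero.1 h)
    · have h3 : finrank (ZMod 2) W < finrank (ZMod 2) (V n) := Submodule.finrank_lt ht'
      rwa [Module.finrank_fintype_fun_eq_card, Fintype.card_fin] at h3
  · exact h3

theorem irr_of_irr {t : G n} (ht : t ∈ H) {S : ℕ → Prop} (h1 : Dims t S)
    (h : ∀ d, 0 < d → d < n → S d → False) : ¬ Red H ∧ ActsIrreducibly (matrixSet H) :=
  irr_of_dims ht ht h1 h1 fun d h1 h2 h3 _ => h d h1 h2 h3

section field

variable {r : ℕ} {L : Subalgebra (ZMod 2) (Matrix (Fin n) (Fin n) (ZMod 2))}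

/-- the dimension of the fixed space is divisible by the degree of the field -/
theorem kd_dvd [Nonempty (Fin n)] (hL : IsFieldSubalgebra r L) (hH : H ≤ subalgebraNormalizer L) {t : G n} (ht : t ∈ H)
    (hco : (orderOf t).Coprime r) (j : ℕ) : r ∣ kd t j := by
  have h1 : ∀ e ∈ L, (t : Matrix (Fin n) (Fin n) (ZMod 2)) * e = e * t := fun e he =>
    comm_of_coprime hL (hH ht) hco he
  have h2 : ∀ e ∈ L, ((t ^ j : G n) : Matrix (Fin n) (Fin n) (ZMod 2)) * e = e * ((t ^ j : G n) : Matrix _ _ _) := by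
    intro e he
    rw [Units.val_pow_eq_pow_val]
    exact (Commute.pow_left (h1 e he) j).eq
  have h3 := dvd_ker hL (x := ((t ^ j : G n) : Matrix (Fin n) (Fin n) (ZMod 2)) - 1) (fun e he => by
    rw [sub_mul, mul_sub, one_mul, mul_one, h2 e he])
  rwa [map_sub, Matrix.toLin'_one] at h3

/-- the dimension of a root space is divisible by the degree of the field -/
theorem K_dvd [Nonempty (Fin n)] (hL : IsFieldSubalgebra r L) (hH : H ≤ subalgebraNormalizer L) {t : G n} (ht : t ∈ H)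
    (hco : (orderOf t).Coprime r) (j a b : ℕ) : r ∣ finrank (ZMod 2) (K (t ^ j) a b) := by
  have h1 : ∀ e ∈ L, (t : Matrix (Fin n) (Fin n) (ZMod 2)) * e = e * t := fun e he =>
    comm_of_coprime hL (hH ht) hco he
  have h2 : ∀ e ∈ L, ((t ^ j : G n) : Matrix (Fin n) (Fin n) (ZMod 2)) * e = e * ((t ^ j : G n) : Matrix _ _ _) := by
    intro e he
    rw [Units.val_pow_eq_pow_val]
    exact (Commute.pow_left (h1 e he) j).eq
  exact dvd_ker hL (fun e he => Cfsg.Agent.H383.Cov.comm_aeval (h2 e he) _)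

end field

/-- **Conclusion**: `H` is in the residual class, or normalises a field of degree 2 (dimension `n` a power of 2 or the odd
prime divisors of `n` excluded by hypothesis) -/
theorem two_or_res (hn : 3 ≤ n) (heven : Even n) (hQ : IsNondegenerateQuadraticForm Q)
    (hH : H ≤ isometryGroup (ZMod 2) Q) (hirr : ActsIrreducibly (matrixSet H)) {s : ℕ} (hs : s.Prime)
    (hs2 : s ≠ 2) (hsH : s ∣ Nat.card H) (hsn : n < 2 * s) (hmin : ∀ i, 1 ≤ i → 2 * i ≤ n → ¬ s ∣ 2 ^ i - 1)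
    (hodd : ∀ r, r.Prime → r ∣ n → r ≠ 2 → ∃ t ∈ H, (orderOf t).Coprime r ∧ ∃ j, ¬ r ∣ kd t j)
    (h2 : ∀ L : Subalgebra (ZMod 2) (Matrix (Fin n) (Fin n) (ZMod 2)), IsFieldSubalgebra 2 L →
      H ≤ subalgebraNormalizer L → False) : InOrthogonalResidualClass H := by
  have : Nonempty (Fin n) := ⟨⟨0, by omega⟩⟩
  rcases geo hn heven hQ hH hirr hs hs2 hsH hsn hmin with ⟨r, L, hr, hrn, hL, -, hHL⟩ | h
  · exfalso
    by_cases hr2 : r = 2
    · subst hr2
      exact h2 L hL hHL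
    · obtain ⟨t, ht, hco, j, hj⟩ := hodd r hr hrn hr2
      exact hj (kd_dvd hL hHL ht hco j)
  · exact h

/-- no field of degree 2: an odd root space -/
theorem no_two_K (hn : 0 < n) {L : Subalgebra (ZMod 2) (Matrix (Fin n) (Fin n) (ZMod 2))}
    (hL : IsFieldSubalgebra 2 L) (hHL : H ≤ subalgebraNormalizer L) {t : G n} (ht : t ∈ H) (hodd : Odd (orderOf t))
    {j a b c : ℕ} (hK : finrank (ZMod 2) (K (t ^ j) a b) = c) (hc : Odd c) : False := by
  have : Nonempty (Fin n) := ⟨⟨0, hn⟩⟩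
  have h1 := K_dvd hL hHL ht (Nat.coprime_two_right.2 hodd) j a b
  rw [hK] at h1
  exact (Nat.not_even_iff_odd.2 hc) (even_iff_two_dvd.2 h1)

/-- no field of degree 2: parity -/
theorem no_two_parity (hn : 0 < n) (hQ : IsNondegenerateQuadraticForm Q) (hH : H ≤ isometryGroup (ZMod 2) Q)
    (hirr : ¬ Red H) {L : Subalgebra (ZMod 2) (Matrix (Fin n) (Fin n) (ZMod 2))}
    (hL : IsFieldSubalgebra 2 L) (hHL : H ≤ subalgebraNormalizer L) {x y : G n} (hx : x ∈ H) (hy : y ∈ H)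
    {a b p q : ℕ} (hp : orderOf x = p) (hq : orderOf y = q) (ha : 1 ≤ a) (hb : 1 ≤ b) (hae : Even a) (hbo : Odd b)
    (hpo : Odd p) (hqo : Odd q) (h1 : p ∣ 2 ^ a + 1) (h2 : q ∣ 2 ^ b + 1) (hbx : Blk (2 * a) x)
    (hby : Blk (2 * b) y) : False := by
  have : Nonempty (Fin n) := ⟨⟨0, hn⟩⟩
  exact Cfsg.Agent.H383.Cov.parity hQ hH hirr hL hHL hx hy ha hb hae hbo (by rwa [hp]) (by rwa [hq])
    (by rwa [hp, card2]) (by rwa [hq, card2]) hbx hby

end Cfsg.Agent.H172.Cov
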