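import Cfsg.Agent.H172.Cov.Elem
import Cfsg.Agent.H925.EvenFine
import Cfsg.Agent.H251.GeoCardB

/-!
# S2499, the orthogonal groups over the field of two elements: the geometric subgroups (helper172)

`geo` : an irreducible group `H` of isometries whose order is divisible by a prime `s > n / 2` not dividing `2 ^ i - 1` for
`i ≤ n / 2` normalises a field of matrices or is in the residual class.
-/

set_option autoImplicit false
set_option linter.unusedSectionVars false

namespace Cfsg.Agent.H172.Cov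

open Module Matrix Cfsg Cfsg.Geo
open Cfsg.Agent.H251.GeoCard (Div decomp tensor)
open scoped MatrixGroups

variable {n : ℕ} {Q : V n → ZMod 2}

theorem no_subfield' {F₁ : Subfield (ZMod 2)} {r : ℕ} (hr : r.Prime) (h : Nat.card (ZMod 2) = Nat.card F₁ ^ r) : False := by
  rw [card2] at h
  have h1 : 2 ≤ r := hr.two_le
  rcases Nat.lt_or_ge (Nat.card F₁) 2 with h2 | h2
  · have h3 : Nat.card F₁ = 0 ∨ Nat.card F₁ = 1 := by omega
    rcases h3 with h3 | h3 <;> rw [h3] at h
    · rw [zero_pow (by omega)] at h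
      omega
    · rw [one_pow] at h
      omega
  · have h3 : 2 ^ 2 ≤ Nat.card F₁ ^ r := (Nat.pow_le_pow_right (by norm_num) h1).trans (Nat.pow_le_pow_left h2 r)
    omega

theorem polar_self (hQ : IsNondegenerateQuadraticForm Q) (v : V n) : QuadraticMap.polar Q v v = 0 := by
  rw [QuadraticMap.polar, two_eq]
  have h0 : Q 0 = 0 := by
    have := hQ.smul 0 0
    rw [zero_smul] at this
    rw [this]
    ring
  rw [h0]
  have : Q v + Q v = 0 := CharTwo.add_self_eq_zero _
  linear_combination -this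

/-- the members of a nondegenerate decomposition have dimension at least 2 -/
theorem two_le_of_nd (hQ : IsNondegenerateQuadraticForm Q) {t m : ℕ} {D : Fin t → Submodule (ZMod 2) (V n)}
    (hD : IsOrthogonalMDecomposition Q m D) : 2 ≤ m := by
  by_contra hcon
  have hm := hD.decomp.decomp.pos
  have hm1 : m = 1 := by omega
  subst hm1
  have ht := hD.decomp.decomp.two_le
  let i : Fin t := ⟨0, by omega⟩
  have h1 := hD.decomp.decomp.finrank_eq i
  obtain ⟨w, hw, hw1⟩ := finrank_eq_one_iff'.1 h1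
  have hw0 : (w : V n) ≠ 0 := fun h => hw (Subtype.ext h)
  obtain ⟨⟨x, hx, hx1⟩, -⟩ := hD.decomp.nondegenerate i w w.2 hw0
  obtain ⟨c, hc⟩ := hw1 ⟨x, hx⟩
  apply hx1
  have h2 : x = c • (w : V n) := by
    have := congrArg Subtype.val hc
    exact this.symm
  rw [h2, hQ.polar_bilinear.smul_left, polar_self hQ, mul_zero]

theorem dvd_mono {H M : Subgroup (G n)} (h : H ≤ M) {s : ℕ} (hs : s ∣ Nat.card H) : s ∣ Nat.card M :=
  hs.trans (Subgroup.card_dvd_of_le h)

/-- **the geometric classes** -/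
theorem geo (hn : 3 ≤ n) (heven : Even n) (hQ : IsNondegenerateQuadraticForm Q) {H : Subgroup (G n)}
    (hH : H ≤ isometryGroup (ZMod 2) Q) (hirr : ActsIrreducibly (matrixSet H)) {s : ℕ} (hs : s.Prime)
    (hs2 : s ≠ 2) (hsH : s ∣ Nat.card H) (hsn : n < 2 * s) (hmin : ∀ i, 1 ≤ i → 2 * i ≤ n → ¬ s ∣ 2 ^ i - 1) :
    (∃ (r : ℕ) (K : Subalgebra (ZMod 2) (Matrix (Fin n) (Fin n) (ZMod 2))), r.Prime ∧ r ∣ n ∧ IsFieldSubalgebra r K ∧
      IsAdjointClosedFor (QuadraticMap.polar Q) K ∧ H ≤ subalgebraNormalizer K) ∨ InOrthogonalResidualClass H := by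
  have hF : ¬ s ∣ Nat.card (ZMod 2) := by
    rw [card2]
    intro h
    exact hs2 ((Nat.prime_dvd_prime_iff_eq hs Nat.prime_two).1 h)
  have hdiv : ∀ d, 2 * d ≤ n → ¬ Div s (Nat.card (ZMod 2)) d := by
    rintro d hd ⟨i, h1, h2, h3⟩
    rw [card2] at h3
    exact hmin i h1 (by omega) h3
  have hne : Nonempty (Fin n) := ⟨⟨0, by omega⟩⟩
  rcases Cfsg.Agent.H925.orth_irreducible_fine (by rwa [Fintype.card_fin]) hQ hH hirr with
    ⟨t, m, D, htm, hD, hHD, -⟩ | ⟨m, D, hm, hD, -, hHD⟩ | ⟨r, K, hr, hrn, hK, hadj, hHK⟩ |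
    ⟨n₁, n₂, e, P, ε, f₁, f₂, h1, h2, h12, -, -, -, -, hHT⟩ | ⟨F₁, r, -, -, -, hr, hc, -⟩ |
    ⟨r, m, R, -, -, -, -, -, hr, hm, hcard, -, hrr, -⟩ | ⟨m, t, e, P, E, hmt, hw⟩ | hS
  · exfalso
    rw [Fintype.card_fin] at htm
    have h1 := two_le_of_nd hQ hD
    have h2 := hD.decomp.decomp.two_le
    rcases decomp hD.decomp.decomp hs hF (dvd_mono hHD hsH) with h | h
    · have : s * 2 ≤ t * m := Nat.mul_le_mul h h1
      omega
    · refine hdiv m ?_ h
      have : 2 * m ≤ t * m := Nat.mul_le_mul_right _ h2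
      omega
  · exfalso
    rw [Fintype.card_fin] at hm
    rcases decomp hD hs hF (dvd_mono hHD hsH) with h | h
    · have := hs.two_le
      omega
    · exact hdiv m (by omega) h
  · rw [Fintype.card_fin] at hrn
    exact Or.inl ⟨r, K, hr, hrn, hK, hadj, hHK⟩
  · exfalso
    rw [Fintype.card_fin] at h12
    refine hdiv _ ?_ (tensor e P hs hF (dvd_mono hHT hsH))
    rcases le_total n₁ n₂ with h | h
    · rw [max_eq_right h]
      have : 2 * n₂ ≤ n₁ * n₂ := Nat.mul_le_mul_right _ h1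
      omega
    · rw [max_eq_left h]
      have : n₁ * 2 ≤ n₁ * n₂ := Nat.mul_le_mul_left _ h2
      omega
  · exact absurd hc (no_subfield' hr)
  · exfalso
    rw [Fintype.card_fin] at hcard
    have h1 : ringChar (ZMod 2) = 2 := ZMod.ringChar_zmod_n 2
    rw [h1] at hr
    rcases hrr with ⟨hodd, -⟩ | ⟨h, -⟩ | ⟨h, -⟩
    · have h2 : Odd (r ^ m) := hodd.pow
      rw [← hcard] at h2
      exact (Nat.not_odd_iff_even.2 heven) h2
    · exact hr h.symm
    · exact hr h.symm
  · exfalso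
    rw [Fintype.card_fin] at hmt
    have h1 := hw.two_le_m
    have h2 := hw.two_le_t
    have h3 : m * m ≤ m ^ t := by
      rw [← pow_two]
      exact Nat.pow_le_pow_right (by omega) h2
    rcases Cfsg.Agent.H251.GeoCard.wreath e P hs hF (dvd_mono hw.wreath hsH) with h | h
    · have h4 : 2 ^ t ≤ m ^ t := Nat.pow_le_pow_left h1 t
      have h5 : 2 * t ≤ 2 ^ t := by
        obtain ⟨u, rfl⟩ : ∃ u, t = u + 1 := ⟨t - 1, by omega⟩
        have : u < 2 ^ u := Nat.lt_two_pow_self
        rw [pow_succ]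
        omega
      omega
    · refine hdiv m ?_ h
      have : 2 * m ≤ m * m := Nat.mul_le_mul_right _ h1
      omega
  · exact Or.inr hS

end Cfsg.Agent.H172.Cov
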