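import Cfsg.Agent.H172.Cov.Fld

/-!
# S2499, the orthogonal groups over the field of two elements: the types of elements (helper172)
-/

set_option autoImplicit false
set_option linter.unusedSectionVars false
set_option maxRecDepth 10000

namespace Cfsg.Agent.H172.Cov

open Module Matrix Cfsg Cfsg.Geo
open Cfsg.Agent.H383.Cov (Blk)
open scoped MatrixGroups

theorem pr_of {r c : ℕ} (h : r.Prime) (h2 : r.Coprime 2) (h3 : 1 ≤ c) (h4 : (2 ^ c - 1) % r = 0)
    (h5 : (List.range c).all fun i => (i == 0) || !((2 ^ i - 1) % r == 0)) : Pr 2 r c := by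
  refine ⟨h, h2, h3, Nat.dvd_of_mod_eq_zero h4, fun i hi hic hd => ?_⟩
  rw [List.all_eq_true] at h5
  have h6 := h5 i (List.mem_range.2 hic)
  have h7 : (2 ^ i - 1) % r = 0 := Nat.mod_eq_zero_of_dvd hd
  rw [h7] at h6
  have h8 : (i == 0) = false := by
    rw [beq_eq_false_iff_ne]
    omega
  rw [h8] at h6
  exact absurd h6 (by decide)

theorem pr3 : Pr 2 3 2 := pr_of (by norm_num) (by norm_num) (by norm_num) (by norm_num) (by decide)
theorem pr5 : Pr 2 5 4 := pr_of (by norm_num) (by norm_num) (by norm_num) (by norm_num) (by decide)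
theorem pr7 : Pr 2 7 3 := pr_of (by norm_num) (by norm_num) (by norm_num) (by norm_num) (by decide)
theorem pr11 : Pr 2 11 10 := pr_of (by norm_num) (by norm_num) (by norm_num) (by norm_num) (by decide)
theorem pr13 : Pr 2 13 12 := pr_of (by norm_num) (by norm_num) (by norm_num) (by norm_num) (by decide)
theorem pr17 : Pr 2 17 8 := pr_of (by norm_num) (by norm_num) (by norm_num) (by norm_num) (by decide)
theorem pr31 : Pr 2 31 5 := pr_of (by norm_num) (by norm_num) (by norm_num) (by norm_num) (by decide)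
theorem pr43 : Pr 2 43 14 := pr_of (by norm_num) (by norm_num) (by norm_num) (by norm_num) (by decide)
theorem pr127 : Pr 2 127 7 := pr_of (by norm_num) (by norm_num) (by norm_num) (by norm_num) (by decide)

variable {n : ℕ}

theorem mem_kerS {x : Module.End (ZMod 2) (V n)} {w : V n} : w ∈ LinearMap.ker (x - 1) ↔ x w = w := by
  rw [LinearMap.mem_ker, LinearMap.sub_apply, sub_eq_zero, Module.End.one_apply]

theorem pow_eq_one_of {t : G n} {N k : ℕ} (h : orderOf t = N) (hk : N ∣ k) : t ^ k = 1 :=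
  orderOf_dvd_iff_pow_eq_one.1 (h ▸ hk)

theorem pow_ne_one_of {t : G n} {N k : ℕ} (h : orderOf t = N) (hk : ¬ N ∣ k) : t ^ k ≠ 1 := fun h1 =>
  hk (h ▸ orderOf_dvd_iff_pow_eq_one.2 h1)

theorem orderOf_pow_of {t : G n} {N i r : ℕ} (h : orderOf t = N) (hi : i ≠ 0) (h2 : N / Nat.gcd N i = r) :
    orderOf (t ^ i) = r := by
  rw [orderOf_pow' t hi, h, h2]

/-! ### dimension 10 -/

/-- order 31 without fixed vectors in dimension 10 -/
theorem a31 {t : G 10} (h : orderOf t = 31) (hnf : NF t 1) : Dims t fun d => d = 0 ∨ d = 5 ∨ d = 10 := by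
  have hn0 := data2 pr31 pr31 (t := t) (i := 1) (j := 1) (pow_eq_one_of h (by norm_num)) (pow_eq_one_of h (by norm_num))
    (pow_ne_one_of h (by norm_num)) hnf
  obtain ⟨h1, h2, h3, h4, h5⟩ := hn0
  intro W hW
  obtain ⟨a, b, h6, h7, h8, h9, h10⟩ := h5 W hW
  omega

theorem a17 {t : G 10} (h : orderOf t = 17) : rd t 1 = 8 ∧ kd t 1 = 2 ∧
    Dims t fun d => d = 0 ∨ d = 1 ∨ d = 2 ∨ d = 8 ∨ d = 9 ∨ d = 10 := by
  obtain ⟨h1, h2, h3, h4⟩ := data1 pr17 (t := t) (i := 1) (pow_eq_one_of h (by norm_num)) (pow_ne_one_of h (by norm_num))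
  refine ⟨by omega, by omega, fun W hW => ?_⟩
  obtain ⟨a, b, h6, h7, h8, h9⟩ := h4 W hW
  omega

theorem a33 {t : G 10} (h : orderOf t = 33) : rd t 3 = 10 ∧ kd t 3 = 0 ∧ Dims t fun d => d = 0 ∨ d = 10 := by
  obtain ⟨h1, h2, h3, h4⟩ := data1 pr11 (t := t) (i := 3) (pow_eq_one_of h (by norm_num)) (pow_ne_one_of h (by norm_num))
  refine ⟨by omega, by omega, fun W hW => ?_⟩
  obtain ⟨a, b, h6, h7, h8, h9⟩ := h4 W hW
  omega

theorem a35 {t : G 10} (h : orderOf t = 35) (hnf : NF t 1) : rd t 5 = 6 ∧ kd t 5 = 4 ∧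
    Dims t fun d => d = 0 ∨ d = 3 ∨ d = 4 ∨ d = 6 ∨ d = 7 ∨ d = 10 := by
  have hn0 := data2 pr7 pr5 (t := t) (i := 5) (j := 7) (pow_eq_one_of h (by norm_num)) (pow_eq_one_of h (by norm_num))
    (pow_ne_one_of h (by norm_num)) hnf
  obtain ⟨h1, h2, h3, h4, h5⟩ := hn0
  refine ⟨by omega, by omega, fun W hW => ?_⟩
  obtain ⟨a, b, h6, h7, h8, h9, h10⟩ := h5 W hW
  obtain ⟨c, rfl⟩ := h7
  obtain ⟨e, rfl⟩ := h8
  have hc : c ≤ 2 := by omega
  have he : e ≤ 1 := by omega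
  interval_cases c <;> interval_cases e <;> omega

/-- order 45: the part of order 5 has commutator space of dimension 4, the part of order 9 is semiregular on its fixed
space -/
theorem a45 {t : G 10} (h : orderOf t = 45) (hnf : NF t 3) : rd t 9 = 4 ∧ kd t 9 = 6 ∧
    Dims t fun d => d = 0 ∨ d = 4 ∨ d = 6 ∨ d = 10 := by
  have key : ∀ W : Submodule (ZMod 2) (V 10), Inv t W → 6 ∣ finrank (ZMod 2) (W ⊓ LinearMap.ker (E (t ^ 9) - 1) : Submodule _ _) := by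
    intro W hW
    refine dvd_of_semireg (F := ZMod 2) (x := E (t ^ 5)) (M := 9) (by norm_num) ?_ (by norm_num) ?_ ?_ ?_ ?_
    · rw [← E_pow, ← pow_mul, pow_eq_one_of h (by norm_num), E_one]
    · rw [card2]; norm_num
    · intro i h1 h2
      rw [card2]
      interval_cases i <;> norm_num
    · exact ker_inv (E_comm t 9 5) (hW.pow 5)
    · rintro d h1 h2 w ⟨-, hw1⟩ hw2
      have h3 : E (t ^ 9) w = w := mem_kerS.1 hw1
      rw [← E_pow, ← pow_mul] at hw2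
      -- `t ^ 15` fixes `w`
      have h45 : t ^ 45 = 1 := pow_eq_one_of h (dvd_refl _)
      have h5 : E (t ^ 45) w = w := by rw [h45, E_one, Module.End.one_apply]
      have h6 := fix_gcd (fix_gcd hw2 h5) h3
      have h7 : Nat.gcd (Nat.gcd (5 * d) 45) 9 = 1 ∨ Nat.gcd (Nat.gcd (5 * d) 45) 9 = 3 := by
        interval_cases d <;> simp
      rcases h7 with h7 | h7 <;> rw [h7] at h6
      · refine hnf w ?_
        have h8 : ∀ k, E (t ^ k) w = w := by
          intro k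
          rw [E_pow]
          induction k with
          | zero => rfl
          | succ k ih =>
            rw [pow_one] at h6
            rw [pow_succ', Module.End.mul_apply, ih, h6]
        exact h8 3
      · exact hnf w h6
  obtain ⟨h1, h2, h3, h4⟩ := data1 pr5 (t := t) (i := 9) (pow_eq_one_of h (by norm_num)) (pow_ne_one_of h (by norm_num))
  have h5 := key ⊤ (fun _ _ => trivial)
  rw [top_inf_eq] at h5
  change 6 ∣ kd t 9 at h5
  have h6 : rd t 9 = 4 := by omega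
  have h7 : kd t 9 = 6 := by omega
  refine ⟨h6, h7, fun W hW => ?_⟩
  have h8 := key W hW
  have hx : E (t ^ 9) ^ 5 = 1 := by rw [← E_pow, ← pow_mul, pow_eq_one_of h (by norm_num), E_one]
  have p5 : Pr (Nat.card (ZMod 2)) 5 4 := by rw [card2]; exact pr5
  have h9 := split hx p5.cop (hW.pow 9)
  have h10 := p5.dvd_range hx (hW.pow 9)
  have h11 : finrank (ZMod 2) (W ⊓ LinearMap.ker (E (t ^ 9) - 1) : Submodule _ _) ≤ kd t 9 :=
    Submodule.finrank_mono inf_le_right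
  have h12 : finrank (ZMod 2) (W ⊓ LinearMap.range (E (t ^ 9) - 1) : Submodule _ _) ≤ rd t 9 :=
    Submodule.finrank_mono inf_le_right
  omega

/-! ### dimension 12 -/

theorem b85 {t : G 12} (h : orderOf t = 85) (hnf : NF t 1) : rd t 5 = 8 ∧ kd t 5 = 4 ∧
    Dims t fun d => d = 0 ∨ d = 4 ∨ d = 8 ∨ d = 12 := by
  have hn0 := data2 pr17 pr5 (t := t) (i := 5) (j := 17) (pow_eq_one_of h (by norm_num)) (pow_eq_one_of h (by norm_num))
    (pow_ne_one_of h (by norm_num)) hnf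
  obtain ⟨h1, h2, h3, h4, h5⟩ := hn0
  refine ⟨by omega, by omega, fun W hW => ?_⟩
  obtain ⟨a, b, h6, h7, h8, h9, h10⟩ := h5 W hW
  omega

theorem b33 {t : G 12} (h : orderOf t = 33) (hnf : NF t 1) : rd t 3 = 10 ∧ kd t 3 = 2 ∧
    Dims t fun d => d = 0 ∨ d = 2 ∨ d = 10 ∨ d = 12 := by
  have hn0 := data2 pr11 pr3 (t := t) (i := 3) (j := 11) (pow_eq_one_of h (by norm_num)) (pow_eq_one_of h (by norm_num))
    (pow_ne_one_of h (by norm_num)) hnf
  obtain ⟨h1, h2, h3, h4, h5⟩ := hn0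
  refine ⟨by omega, by omega, fun W hW => ?_⟩
  obtain ⟨a, b, h6, h7, h8, h9, h10⟩ := h5 W hW
  omega

/-- order 31 in dimension 12 with two different root spaces -/
theorem b31 {t : G 12} (h : orderOf t = 31) (h1 : Rt t 5 2) (h2 : Rt t 5 3) : rd t 1 = 10 ∧ kd t 1 = 2 ∧
    finrank (ZMod 2) (K t 5 2) = 5 ∧
    Dims t fun d => d = 0 ∨ d = 1 ∨ d = 2 ∨ d = 5 ∨ d = 6 ∨ d = 7 ∨ d = 10 ∨ d = 11 ∨ d = 12 := by
  obtain ⟨h3, h4, h5, h6⟩ := data1 pr31 (t := t) (i := 1) (pow_eq_one_of h (by norm_num)) (pow_ne_one_of h (by norm_num))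
  have h7 := finrank_K pr31 (x := t) (b := 2) (pow_eq_one_of h (by norm_num)) h1 h2 (by norm_num) (by norm_num) (by omega)
  have h8 := finrank_K' pr31 (x := t) (b := 2) (pow_eq_one_of h (by norm_num)) h1 h2 (by norm_num) (by norm_num)
  refine ⟨by omega, by omega, h7, fun W hW => ?_⟩
  obtain ⟨a, b, h9, h10, h11, h12⟩ := h6 W hW
  omega

theorem b65 {t : G 12} (h : orderOf t = 65) : rd t 5 = 12 ∧ kd t 5 = 0 ∧ Dims t fun d => d = 0 ∨ d = 12 := by
  obtain ⟨h1, h2, h3, h4⟩ := data1 pr13 (t := t) (i := 5) (pow_eq_one_of h (by norm_num)) (pow_ne_one_of h (by norm_num))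
  refine ⟨by omega, by omega, fun W hW => ?_⟩
  obtain ⟨a, b, h6, h7, h8, h9⟩ := h4 W hW
  omega

theorem b11 {t : G 12} (h : orderOf t = 11) : rd t 1 = 10 ∧ kd t 1 = 2 ∧
    Dims t fun d => d = 0 ∨ d = 1 ∨ d = 2 ∨ d = 10 ∨ d = 11 ∨ d = 12 := by
  obtain ⟨h1, h2, h3, h4⟩ := data1 pr11 (t := t) (i := 1) (pow_eq_one_of h (by norm_num)) (pow_ne_one_of h (by norm_num))
  refine ⟨by omega, by omega, fun W hW => ?_⟩
  obtain ⟨a, b, h6, h7, h8, h9⟩ := h4 W hW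
  omega

theorem b93 {t : G 12} (h : orderOf t = 93) (hnf : NF t 1) (h1 : Rt (t ^ 3) 5 2) (h2 : Rt (t ^ 3) 5 3) :
    rd t 3 = 10 ∧ kd t 3 = 2 ∧ finrank (ZMod 2) (K (t ^ 3) 5 2) = 5 ∧
    Dims t fun d => d = 0 ∨ d = 2 ∨ d = 5 ∨ d = 7 ∨ d = 10 ∨ d = 12 := by
  have hn0 := data2 pr31 pr3 (t := t) (i := 3) (j := 31) (pow_eq_one_of h (by norm_num)) (pow_eq_one_of h (by norm_num))
    (pow_ne_one_of h (by norm_num)) hnf
  obtain ⟨h3, h4, h5, h6, h7⟩ := hn0
  have h8 := finrank_K pr31 (x := t ^ 3) (b := 2) (by rw [← pow_mul]; exact pow_eq_one_of h (by norm_num)) h1 h2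
    (by norm_num) (by norm_num) (by rw [rd_pow]; omega)
  refine ⟨by omega, by omega, h8, fun W hW => ?_⟩
  obtain ⟨a, b, h9, h10, h11, h12, h13⟩ := h7 W hW
  obtain ⟨c, rfl⟩ := h10
  obtain ⟨e, rfl⟩ := h11
  have hc : c ≤ 2 := by omega
  have he : e ≤ 1 := by omega
  interval_cases c <;> interval_cases e <;> omega

/-! ### dimension 14 -/

theorem c127 {t : G 14} (h : orderOf t = 127) (h1 : Rt t 7 1) (h2 : Rt t 7 6) : rd t 1 = 14 ∧ kd t 1 = 0 ∧
    finrank (ZMod 2) (K t 7 1) = 7 ∧ Dims t fun d => d = 0 ∨ d = 7 ∨ d = 14 := by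
  obtain ⟨h3, h4, h5, h6⟩ := data1 pr127 (t := t) (i := 1) (pow_eq_one_of h (by norm_num)) (pow_ne_one_of h (by norm_num))
  have h7 := finrank_K pr127 (x := t) (b := 1) (pow_eq_one_of h (by norm_num)) h1 h2 (by norm_num) (by norm_num) (by omega)
  have h8 := finrank_K' pr127 (x := t) (b := 1) (pow_eq_one_of h (by norm_num)) h1 h2 (by norm_num) (by norm_num)
  refine ⟨by omega, by omega, h7, fun W hW => ?_⟩
  obtain ⟨a, b, h9, h10, h11, h12⟩ := h6 W hW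
  omega

theorem c65 {t : G 14} (h : orderOf t = 65) : rd t 5 = 12 ∧ kd t 5 = 2 ∧
    Dims t fun d => d = 0 ∨ d = 1 ∨ d = 2 ∨ d = 12 ∨ d = 13 ∨ d = 14 := by
  obtain ⟨h1, h2, h3, h4⟩ := data1 pr13 (t := t) (i := 5) (pow_eq_one_of h (by norm_num)) (pow_ne_one_of h (by norm_num))
  refine ⟨by omega, by omega, fun W hW => ?_⟩
  obtain ⟨a, b, h6, h7, h8, h9⟩ := h4 W hW
  omega

theorem c165 {t : G 14} (h : orderOf t = 165) (hnf : NF t 3) : rd t 15 = 10 ∧ kd t 15 = 4 ∧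
    Dims t fun d => d = 0 ∨ d = 4 ∨ d = 10 ∨ d = 14 := by
  have hn0 := data2 pr11 pr5 (t := t) (i := 15) (j := 33) (pow_eq_one_of h (by norm_num)) (pow_eq_one_of h (by norm_num))
    (pow_ne_one_of h (by norm_num)) hnf
  obtain ⟨h1, h2, h3, h4, h5⟩ := hn0
  refine ⟨by omega, by omega, fun W hW => ?_⟩
  obtain ⟨a, b, h6, h7, h8, h9, h10⟩ := h5 W hW
  obtain ⟨c, rfl⟩ := h7
  obtain ⟨e, rfl⟩ := h8
  have hc : c ≤ 1 := by omega
  have he : e ≤ 1 := by omega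
  interval_cases c <;> interval_cases e <;> omega

theorem c43 {t : G 14} (h : orderOf t = 43) : rd t 1 = 14 ∧ kd t 1 = 0 ∧ Dims t fun d => d = 0 ∨ d = 14 := by
  obtain ⟨h1, h2, h3, h4⟩ := data1 pr43 (t := t) (i := 1) (pow_eq_one_of h (by norm_num)) (pow_ne_one_of h (by norm_num))
  refine ⟨by omega, by omega, fun W hW => ?_⟩
  obtain ⟨a, b, h6, h7, h8, h9⟩ := h4 W hW
  omega

theorem c13 {t : G 14} (h : orderOf t = 13) : rd t 1 = 12 ∧ kd t 1 = 2 ∧
    Dims t fun d => d = 0 ∨ d = 1 ∨ d = 2 ∨ d = 12 ∨ d = 13 ∨ d = 14 := by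
  obtain ⟨h1, h2, h3, h4⟩ := data1 pr13 (t := t) (i := 1) (pow_eq_one_of h (by norm_num)) (pow_ne_one_of h (by norm_num))
  refine ⟨by omega, by omega, fun W hW => ?_⟩
  obtain ⟨a, b, h6, h7, h8, h9⟩ := h4 W hW
  omega

theorem c155 {t : G 14} (h : orderOf t = 155) (hnf : NF t 1) (h1 : Rt (t ^ 5) 5 2) (h2 : Rt (t ^ 5) 5 3) :
    rd t 5 = 10 ∧ kd t 5 = 4 ∧ finrank (ZMod 2) (K (t ^ 5) 5 2) = 5 ∧
    Dims t fun d => d = 0 ∨ d = 4 ∨ d = 5 ∨ d = 9 ∨ d = 10 ∨ d = 14 := by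
  have hn0 := data2 pr31 pr5 (t := t) (i := 5) (j := 31) (pow_eq_one_of h (by norm_num)) (pow_eq_one_of h (by norm_num))
    (pow_ne_one_of h (by norm_num)) hnf
  obtain ⟨h3, h4, h5, h6, h7⟩ := hn0
  have h8 := finrank_K pr31 (x := t ^ 5) (b := 2) (by rw [← pow_mul]; exact pow_eq_one_of h (by norm_num)) h1 h2
    (by norm_num) (by norm_num) (by rw [rd_pow]; omega)
  refine ⟨by omega, by omega, h8, fun W hW => ?_⟩
  obtain ⟨a, b, h9, h10, h11, h12, h13⟩ := h7 W hW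
  obtain ⟨c, rfl⟩ := h10
  obtain ⟨e, rfl⟩ := h11
  have hc : c ≤ 2 := by omega
  have he : e ≤ 1 := by omega
  interval_cases c <;> interval_cases e <;> omega

/-! ### dimension 16 -/

theorem d129 {t : G 16} (h : orderOf t = 129) (hnf : NF t 1) : rd t 3 = 14 ∧ kd t 3 = 2 ∧
    Dims t fun d => d = 0 ∨ d = 2 ∨ d = 14 ∨ d = 16 := by
  have hn0 := data2 pr43 pr3 (t := t) (i := 3) (j := 43) (pow_eq_one_of h (by norm_num)) (pow_eq_one_of h (by norm_num))
    (pow_ne_one_of h (by norm_num)) hnf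
  obtain ⟨h1, h2, h3, h4, h5⟩ := hn0
  refine ⟨by omega, by omega, fun W hW => ?_⟩
  obtain ⟨a, b, h6, h7, h8, h9, h10⟩ := h5 W hW
  omega

theorem d65 {t : G 16} (h : orderOf t = 65) (hnf : NF t 1) : rd t 5 = 12 ∧ kd t 5 = 4 ∧
    Dims t fun d => d = 0 ∨ d = 4 ∨ d = 12 ∨ d = 16 := by
  have hn0 := data2 pr13 pr5 (t := t) (i := 5) (j := 13) (pow_eq_one_of h (by norm_num)) (pow_eq_one_of h (by norm_num))
    (pow_ne_one_of h (by norm_num)) hnf
  obtain ⟨h1, h2, h3, h4, h5⟩ := hn0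
  refine ⟨by omega, by omega, fun W hW => ?_⟩
  obtain ⟨a, b, h6, h7, h8, h9, h10⟩ := h5 W hW
  omega

theorem d217 {t : G 16} (h : orderOf t = 217) (hnf : NF t 1) (h1 : Rt (t ^ 7) 5 2) (h2 : Rt (t ^ 7) 5 3) :
    rd t 7 = 10 ∧ kd t 7 = 6 ∧ finrank (ZMod 2) (K (t ^ 7) 5 2) = 5 ∧
    Dims t fun d => d = 0 ∨ d = 3 ∨ d = 5 ∨ d = 6 ∨ d = 8 ∨ d = 10 ∨ d = 11 ∨ d = 13 ∨ d = 16 := by
  have hn0 := data2 pr31 pr7 (t := t) (i := 7) (j := 31) (pow_eq_one_of h (by norm_num)) (pow_eq_one_of h (by norm_num))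
    (pow_ne_one_of h (by norm_num)) hnf
  obtain ⟨h3, h4, h5, h6, h7⟩ := hn0
  have h8 := finrank_K pr31 (x := t ^ 7) (b := 2) (by rw [← pow_mul]; exact pow_eq_one_of h (by norm_num)) h1 h2
    (by norm_num) (by norm_num) (by rw [rd_pow]; omega)
  refine ⟨by omega, by omega, h8, fun W hW => ?_⟩
  obtain ⟨a, b, h9, h10, h11, h12, h13⟩ := h7 W hW
  obtain ⟨c, rfl⟩ := h10
  obtain ⟨e, rfl⟩ := h11
  have hc : c ≤ 2 := by omega
  have he : e ≤ 2 := by omega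
  interval_cases c <;> interval_cases e <;> omega

end Cfsg.Agent.H172.Cov
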